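/-
The triple cover of Janko's third group inside the unitary group of degree nine over the field with four elements (helper16).
-/
import Cfsg.Agent.Lib.ToddCox.J3O.Main
import Cfsg.Agent.Lib.ToddCox.CentQuot
import Cfsg.Agent.Lib.ToddCox.F4
import Cfsg.Prelude.Def_SporadicB
import Cfsg.Prelude.Def_Sporadic

set_option autoImplicit false
set_option maxRecDepth 100000

namespace Cfsg.Agent.Lib.ToddCox.J3Mat

open Cfsg F4

abbrev M9 : Type := Matrix (Fin 9) (Fin 9) F4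
abbrev Γ : Type := Cfsg.SU 9 F4 2
abbrev Q : Type := PresentedGroup (Spor.coxRelators OPJ3.edges ∪ {r | r ∈ OPJ3.extra})

def ma : M9 := !![.l, .o, .o, .v, .l, .w, .w, .v, .l; .o, .l, .w, .l, .v, .v, .v, .o, .l; .o, .v, .l, .w, .v, .v, .l, .v, .o; .w, .l, .v, .o, .o, .o, .o, .v, .v; .l, .w, .w, .o, .o, .l, .w, .v, .w; .v, .w, .w, .o, .l, .o, .l, .l, .v; .v, .w, .l, .o, .v, .l, .o, .v, .w; .w, .o, .w, .w, .w, .l, .w, .o, .l; .l, .l, .o, .w, .v, .w, .v, .l, .o]
def mb : M9 := !![.o, .l, .v, .l, .v, .o, .v, .w, .v; .l, .o, .v, .w, .v, .l, .v, .l, .o; .w, .w, .l, .w, .w, .v, .w, .w, .w; .l, .v, .v, .l, .v, .l, .l, .l, .w; .w, .w, .v, .w, .l, .l, .o, .l, .o; .o, .l, .w, .l, .l, .o, .o, .w, .o; .w, .w, .v, .l, .o, .o, .l, .w, .v; .v, .l, .v, .l, .l, .v, .v, .l, .v; .w, .o, .v, .v, .o, .o, .w, .w, .o]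
def mc : M9 := !![.l, .v, .o, .o, .l, .w, .l, .v, .v; .w, .o, .o, .w, .l, .l, .l, .w, .l; .o, .o, .o, .l, .l, .o, .o, .v, .o; .o, .v, .l, .l, .o, .l, .l, .v, .l; .l, .l, .l, .o, .o, .w, .o, .o, .l; .v, .l, .o, .l, .v, .o, .v, .l, .w; .l, .l, .o, .l, .o, .w, .l, .v, .l; .w, .v, .w, .w, .o, .l, .w, .l, .o; .w, .l, .o, .l, .l, .v, .l, .o, .l]
def md : M9 := !![.l, .w, .o, .o, .v, .v, .l, .w, .l; .v, .o, .w, .o, .l, .w, .l, .v, .l; .o, .v, .l, .v, .v, .o, .w, .v, .v; .o, .o, .w, .o, .w, .l, .o, .l, .w; .w, .l, .w, .v, .l, .w, .w, .w, .v; .w, .v, .o, .l, .v, .o, .v, .l, .l; .l, .l, .v, .o, .v, .w, .l, .w, .o; .v, .w, .w, .l, .v, .l, .v, .l, .l; .l, .l, .w, .v, .w, .l, .o, .l, .o]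
def me : M9 := !![.l, .w, .o, .o, .o, .o, .l, .l, .l; .v, .o, .v, .l, .o, .w, .o, .o, .v; .o, .w, .l, .v, .o, .o, .w, .o, .v; .o, .l, .w, .o, .w, .v, .o, .o, .v; .o, .o, .o, .v, .l, .o, .v, .l, .w; .o, .v, .o, .w, .o, .l, .o, .l, .v; .l, .o, .v, .o, .w, .o, .o, .v, .w; .l, .o, .o, .o, .l, .l, .w, .o, .v; .l, .w, .w, .w, .v, .w, .v, .w, .l]

theorem det_eq_one_of_inv {M : M9} (h : M * M = 1) : M.det = 1 := by
  have h2 : M.det * M.det = 1 := by rw [← Matrix.det_mul, h, Matrix.det_one]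
  exact F4.sq_eq_one h2

def mkG (M : M9) (h : M * M = 1) (hu : ∀ i j, ∑ k, M k i * (M k j) ^ 2 = if i = j then 1 else 0) : Γ :=
  ⟨⟨M, det_eq_one_of_inv h⟩, mem_SU_of_unitary F4.frob_add (by norm_num) _ hu⟩

def ta : Γ := mkG ma (by decide +kernel) (by decide +kernel)
def tb : Γ := mkG mb (by decide +kernel) (by decide +kernel)
def tc : Γ := mkG mc (by decide +kernel) (by decide +kernel)
def td : Γ := mkG md (by decide +kernel) (by decide +kernel)
def te : Γ := mkG me (by decide +kernel) (by decide +kernel)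

def T : OPJ3.Gen → Γ

  | .a => ta
  | .b => tb
  | .c => tc
  | .d => td
  | .e => te

def z : Γ := FreeGroup.lift T (OPJ3.extra.getD 14 1)

def sc : M9 := Matrix.diagonal fun _ => F4.w

theorem z_val : (z : Γ).1.1 = sc := by decide +kernel

theorem rels_ok : ∀ r ∈ coxList OPJ3.edges ++ OPJ3.extra,
    (FreeGroup.lift T r).1.1 = 1 ∨ (FreeGroup.lift T r).1.1 = sc := by decide +kernel

theorem z_mem : z ∈ Subgroup.closure (Set.range T) := mem_closure_of_lift T _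

theorem z_comm : ∀ a, T a * z = z * T a := by
  intro a
  apply Subtype.ext
  apply Subtype.ext
  show (T a).1.1 * (z : Γ).1.1 = (z : Γ).1.1 * (T a).1.1
  rw [z_val]
  cases a <;> decide +kernel

theorem z_ne : z ≠ 1 := by
  intro h
  have h1 := z_val
  rw [h] at h1
  revert h1
  show ¬ ((1 : M9) = sc)
  decide +kernel

theorem z_cube : z ^ 3 = 1 := by
  apply Subtype.ext
  apply Subtype.ext
  show (z : Γ).1.1 ^ 3 = 1
  rw [z_val]
  decide +kernel

theorem z_order : orderOf z = 3 := by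
  have : Fact (Nat.Prime 3) := ⟨Nat.prime_three⟩
  exact orderOf_eq_prime z_cube z_ne

theorem Ta_ne : T .a * T .b ≠ T .b * T .a := by
  intro h
  have h1 := congrArg (fun g : Γ => g.1.1) h
  revert h1
  decide +kernel

theorem Ta_not : T .a ∉ Subgroup.zpowers z := by
  intro h
  obtain ⟨k, hk⟩ := Subgroup.mem_zpowers_iff.mp h
  apply Ta_ne
  rw [← hk]
  exact (Commute.zpow_left (show Commute z (T .b) from (z_comm .b).symm) k).eq

theorem main : ∃ (F : Type) (_ : Field F) (_ : Fintype F), Fintype.card F = 4 ∧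
    ∃ H : Subgroup (Cfsg.SU 9 F 2), Nat.card (Subgroup.center H) = 3 ∧ Cfsg.IsJ3 (H ⧸ Subgroup.center H) := by
  refine ⟨F4, inferInstance, inferInstance, F4.card_eq, Subgroup.closure (Set.range T), ?_⟩
  have hs := J3O.main
  have hna : ∃ x y : Q, x * y ≠ y * x := by
    apply noncomm_of_simple hs.1
    rw [show Nat.card Q = 50232960 from hs.2]
    norm_num
  have hZc : ∀ g ∈ Subgroup.zpowers z, ∀ a, T a * g = g * T a := by
    intro g hg a
    obtain ⟨k, rfl⟩ := Subgroup.mem_zpowers_iff.mp hg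
    exact (Commute.zpow_right (show Commute (T a) z from z_comm a) k).eq
  have hZle : Subgroup.zpowers z ≤ Subgroup.closure (Set.range T) := by
    rw [Subgroup.zpowers_le]
    exact z_mem
  have hrel : ∀ r ∈ coxList OPJ3.edges ++ OPJ3.extra, FreeGroup.lift T r ∈ Subgroup.zpowers z := by
    intro r hr
    rcases rels_ok r hr with h | h
    · have : FreeGroup.lift T r = 1 := Subtype.ext (Subtype.ext h)
      rw [this]
      exact Subgroup.one_mem _
    · have : FreeGroup.lift T r = z := Subtype.ext (Subtype.ext (h.trans z_val.symm))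
      rw [this]
      exact Subgroup.mem_zpowers z
  obtain ⟨h1, ⟨e⟩⟩ := cent_quot OPJ3.edges OPJ3.extra hs.1 hna T (Subgroup.zpowers z) hZc hZle hrel .a Ta_not
  refine ⟨?_, ?_, ?_⟩
  · rw [h1, Nat.card_zpowers, z_order]
  · have : IsSimpleGroup (PresentedGroup (Spor.coxRelators OPJ3.edges ∪ {r | r ∈ OPJ3.extra})) := hs.1
    exact e.isSimpleGroup
  · rw [Nat.card_congr e.toEquiv]
    exact hs.2

end Cfsg.Agent.Lib.ToddCox.J3Mat
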