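/-
The group generated by the nine-dimensional matrices of the definitions over the field with four elements is the triple cover of
Janko's third group (helper16).
-/
import Cfsg.Agent.Lib.ToddCox.J3Mat.Main
import Cfsg.Prelude.Def_Spor_J3

set_option autoImplicit false
set_option maxRecDepth 100000

namespace Cfsg.Agent.Lib.ToddCox.J3Gen

open Cfsg.Spor Cfsg.Agent.Lib.ToddCox.F4

abbrev N9 : Type := Matrix F9 F9 F4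
abbrev Γ : Type := GL F9 F4
abbrev Q : Type := PresentedGroup (Cfsg.Spor.coxRelators OPJ3.edges ∪ {r | r ∈ OPJ3.extra})

/-- The position of a member of the index set. -/
def ι (z : F9) : Fin 9 := Fin.ofNat 9 (3 * z.1.val + z.2.val)

/-- A matrix of the other file with the indices read in this set. -/
def Mt (m : J3Mat.M9) : N9 := fun i j => m (ι i) (ι j)

def Tm : OPJ3.Gen → N9
  | .a => Mt J3Mat.ma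
  | .b => Mt J3Mat.mb
  | .c => Mt J3Mat.mc
  | .d => Mt J3Mat.md
  | .e => Mt J3Mat.me

theorem Tm_sq : ∀ x, Tm x * Tm x = 1 := by
  intro x
  cases x <;> decide +kernel

/-- The five letters in the general linear group. -/
def Tg (x : OPJ3.Gen) : Γ := ⟨Tm x, Tm x, Tm_sq x, Tm_sq x⟩

def sc : N9 := Matrix.diagonal fun _ => F4.w

def lett : ℕ → OPJ3.Gen
  | 0 => .a
  | 1 => .b
  | 2 => .c
  | 3 => .d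
  | _ => .e

/-- A word in the letters, as a matrix. -/
def prodM (w : List ℕ) : N9 := (w.map fun i => Tm (lett i)).prod

/-- A word in the letters, in the general linear group. -/
def prodT (w : List ℕ) : Γ := (w.map fun i => Tg (lett i)).prod

theorem prodT_val (w : List ℕ) : (prodT w).1 = prodM w := by
  induction w with
  | nil => rfl
  | cons a w ih =>
    show (Tg (lett a) * prodT w).1 = Tm (lett a) * prodM w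
    rw [Units.val_mul, ih]
    rfl

theorem prodT_mem (w : List ℕ) : prodT w ∈ Subgroup.closure (Set.range Tg) := by
  apply Subgroup.list_prod_mem
  intro g hg
  obtain ⟨i, _, rfl⟩ := List.mem_map.mp hg
  exact Subgroup.subset_closure ⟨_, rfl⟩

/-- The generating matrices as words in the letters. -/
def rg : List (List ℕ) := [[], [0, 3, 2, 1, 4, 3, 2, 4, 3, 1, 0, 4, 2, 1, 0, 1, 0, 3, 0, 4, 3, 1, 2, 4, 1, 3, 4, 0, 1, 4, 0], [], [3, 1, 4, 3, 1, 2, 3, 0, 4, 3, 4, 2], [2, 0, 2, 1, 3, 4, 3, 0, 2, 1, 2, 1], [3, 0, 4, 2, 1, 0, 3, 4, 3, 4, 1, 0, 4, 0, 1, 0, 3, 0, 4, 3, 1, 2, 4, 1, 3, 4, 0, 1, 4, 0, 1, 0, 3, 0, 4, 3, 1, 2, 4, 1, 3, 4, 0, 1, 4, 0], [4, 2, 1, 4, 3, 0, 2, 3, 4, 0, 1, 1, 0, 3, 0, 4, 3, 1, 2, 4, 1, 3, 4, 0, 1, 4, 0], [3, 4, 0, 3, 4, 1, 0, 3, 4, 1, 2, 4, 0, 1, 0, 3, 0, 4, 3,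 1, 2, 4, 1, 3, 4, 0, 1, 4, 0], [2, 4, 3, 4, 0, 3, 2, 1, 3, 4, 1, 3], [3, 2, 0, 1, 2, 4, 0, 1, 0, 3, 4, 3, 1, 0, 3, 0, 4, 3, 1, 2, 4, 1, 3, 4, 0, 1, 4, 0, 1, 0, 3, 0, 4, 3, 1, 2, 4, 1, 3, 4, 0, 1, 4, 0], [0, 4, 0, 3, 4, 0, 4, 2, 4, 0, 4, 1, 4, 0, 1, 0, 3, 0, 4, 3, 1, 2, 4, 1, 3, 4, 0, 1, 4, 0], [1, 0, 4, 3, 2, 0, 3, 4, 1, 2, 4, 1, 0, 3, 0, 4, 3, 1, 2, 4, 1, 3, 4, 0, 1, 4, 0, 1, 0, 3, 0, 4, 3, 1, 2, 4, 1, 3, 4, 0, 1, 4, 0], [0, 3, 0, 1, 4, 0, 4, 1, 0, 3, 0], [3, 2, 0, 3, 4, 2, 4, 2, 3, 2, 1, 2, 3, 1, 0, 3, 0, 4, 3, 1, 2, 4, 1, 3, 4, 0, 1, 4, 0], [2, 3, 2, 0, 2, 3, 4, 0, 4, 2, 3, 4, 0, 1, 0, 3, 0, 4, 3, 1, 2, 4, 1, 3, 4, 0, 1, 4, 0], [2, 0, 1, 4, 2, 1, 0, 4, 0, 1, 2, 1, 2, 1, 0, 3, 0, 4, 3, 1, 2, 4, 1, 3, 4, 0, 1, 4, 0, 1, 0, 3, 0, 4, 3, 1, 2, 4, 1, 3, 4, 0, 1, 4, 0], [], [0, 1, 4,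 3, 2, 4, 0, 4, 2, 3, 4, 1, 0], [0, 1, 3, 4, 1, 3, 1, 0, 4, 1, 4], [4, 1, 0, 3, 0, 1, 4, 2, 1, 2], [3, 2, 0, 1, 3, 1, 4, 3, 2, 4, 0, 4, 1, 0, 3, 0, 4, 3, 1, 2, 4, 1, 3, 4, 0, 1, 4, 0, 1, 0, 3, 0, 4, 3, 1, 2, 4, 1, 3, 4, 0, 1, 4, 0], [3, 0, 3, 1, 4, 0, 4, 1, 0, 3, 0], [2, 3, 4, 3, 2, 3, 0, 3, 2, 3, 4, 3, 2], [0, 2, 4, 1, 0, 3, 0, 3, 4, 2, 3, 0, 1, 1, 0, 3, 0, 4, 3, 1, 2, 4, 1, 3, 4, 0, 1, 4, 0, 1, 0, 3, 0, 4, 3, 1, 2, 4, 1, 3, 4, 0, 1, 4, 0], [4, 2, 1, 2, 0, 4, 2, 3, 2, 3, 1, 4, 0, 1], [3, 4, 3, 1, 0, 1, 0, 1, 2, 4, 0, 2, 1, 0, 3, 0, 4, 3, 1, 2, 4, 1, 3, 4, 0, 1, 4, 0], [2, 4, 1, 2, 4, 1, 2, 1, 2, 1, 4, 0, 4, 1, 0, 3, 0, 4, 3, 1, 2, 4, 1, 3, 4, 0, 1, 4, 0], [3, 0, 3, 0, 3, 0], [3, 2, 1, 2, 3, 2, 4, 2, 4, 3, 0, 2, 3, 1, 0, 3, 0, 4, 3, 1, 2, 4, 1, 3, 4, 0, 1, 4, 0, 1, 0, 3, 0, 4, 3,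 1, 2, 4, 1, 3, 4, 0, 1, 4, 0], [1, 3, 2, 3, 4, 2, 3, 2, 4, 3, 0, 1, 0, 3, 0, 4, 3, 1, 2, 4, 1, 3, 4, 0, 1, 4, 0, 1, 0, 3, 0, 4, 3, 1, 2, 4, 1, 3, 4, 0, 1, 4, 0], [2, 1, 2, 1, 0, 4, 0, 1, 2, 4, 1, 0, 2, 1, 0, 3, 0, 4, 3, 1, 2, 4, 1, 3, 4, 0, 1, 4, 0], [4, 0, 3, 4, 1, 3, 0, 4, 1, 2, 4, 1], [3, 0, 3, 1, 4, 0, 4, 1, 3, 0, 3], [1, 0, 3, 2, 4, 3, 0, 3, 0, 1, 4, 2, 0, 1, 0, 3, 0, 4, 3, 1, 2, 4, 1, 3, 4, 0, 1, 4, 0], [4, 0, 4, 0, 4, 2, 4, 1, 3, 1, 0, 4, 1, 1, 0, 3, 0, 4, 3, 1, 2, 4, 1, 3, 4, 0, 1, 4, 0], [2, 0, 4, 2, 1, 0, 1, 0, 1, 3, 4, 3, 1, 0, 3, 0, 4, 3, 1, 2, 4, 1, 3, 4, 0, 1, 4, 0, 1, 0, 3, 0, 4, 3, 1, 2, 4, 1, 3, 4, 0, 1, 4, 0], [0, 3, 0, 1, 4, 0, 4, 1, 3, 0, 3], [3, 4, 1, 0, 1, 0, 2, 1, 4, 3, 0, 2, 1, 1, 0, 3, 0, 4, 3, 1, 2, 4, 1, 3, 4, 0, 1, 4, 0, 1, 0, 3, 0, 4, 3, 1, 2, 4, 1,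 3, 4, 0, 1, 4, 0], [4, 1, 4, 0, 1, 3, 1, 4, 3, 1, 0], [2, 0, 1, 2, 4, 1, 2, 4, 0, 1, 2, 0, 1, 0, 3, 0, 4, 3, 1, 2, 4, 1, 3, 4, 0, 1, 4, 0], [4, 0, 4, 2, 3, 4, 1, 3, 1, 0, 2, 3, 1, 0, 3, 0, 4, 3, 1, 2, 4, 1, 3, 4, 0, 1, 4, 0], [4, 0, 4, 1, 2, 1, 2, 1, 4, 2, 1, 4, 2, 1, 0, 3, 0, 4, 3, 1, 2, 4, 1, 3, 4, 0, 1, 4, 0, 1, 0, 3, 0, 4, 3, 1, 2, 4, 1, 3, 4, 0, 1, 4, 0], [2, 0, 4, 0, 4, 2, 1, 0, 2, 1, 4, 2, 3, 1, 1, 0, 3, 0, 4, 3, 1, 2, 4, 1, 3, 4, 0, 1, 4, 0]]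

/-- The generating matrices by family and parameter. -/
def genOf (f : ℕ) (Z : F9) : N9 :=
  match f with
  | 0 => j3A F4 F4.w Z
  | 1 => j3E F4 F4.w Z
  | 2 => j3D F4 F4.w Z
  | 3 => j3B F4 Z
  | _ => j3C F4 Z

def iOf (f : ℕ) (Z : F9) : ℕ := (if (ι Z).val = 0 then 0 else 3 + 5 * ((ι Z).val - 1)) + f

def codes : List (ℕ × F9) := [
  (0, (0, 0)),
  (1, (0, 0)),
  (2, (0, 0)),
  (0, (0, 1)),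
  (1, (0, 1)),
  (2, (0, 1)),
  (3, (0, 1)),
  (4, (0, 1)),
  (0, (0, 2)),
  (1, (0, 2)),
  (2, (0, 2)),
  (3, (0, 2)),
  (4, (0, 2)),
  (0, (1, 0)),
  (1, (1, 0)),
  (2, (1, 0)),
  (3, (1, 0)),
  (4, (1, 0)),
  (0, (1, 1)),
  (1, (1, 1)),
  (2, (1, 1)),
  (3, (1, 1)),
  (4, (1, 1)),
  (0, (1, 2)),
  (1, (1, 2)),
  (2, (1, 2)),
  (3, (1, 2)),
  (4, (1, 2)),
  (0, (2, 0)),
  (1, (2, 0)),
  (2, (2, 0)),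
  (3, (2, 0)),
  (4, (2, 0)),
  (0, (2, 1)),
  (1, (2, 1)),
  (2, (2, 1)),
  (3, (2, 1)),
  (4, (2, 1)),
  (0, (2, 2)),
  (1, (2, 2)),
  (2, (2, 2)),
  (3, (2, 2)),
  (4, (2, 2)) ]

theorem codes_val : ∀ p ∈ codes, prodM (rg.getD (iOf p.1 p.2) []) = genOf p.1 p.2 := by decide +kernel

theorem codes_all : ∀ Z : F9, (∀ f, f < 3 → (f, Z) ∈ codes) ∧ (Z ≠ 0 → ∀ f, 3 ≤ f → f < 5 → (f, Z) ∈ codes) := by decide +kernel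

theorem codes_ok : ∀ p ∈ codes, p.1 < 5 ∧ (3 ≤ p.1 → p.2 ≠ 0) := by decide +kernel

theorem genOf_mem (f : ℕ) (Z : F9) (hf : f < 5) (hZ : 3 ≤ f → Z ≠ 0) : genOf f Z ∈ j3Gens F4 F4.w := by
  interval_cases f
  · exact Or.inl (Or.inl (Or.inl (Or.inl ⟨Z, rfl⟩)))
  · exact Or.inl (Or.inl (Or.inl (Or.inr ⟨Z, rfl⟩)))
  · exact Or.inl (Or.inl (Or.inr ⟨Z, rfl⟩))
  · exact Or.inl (Or.inr ⟨Z, hZ (by norm_num), rfl⟩)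
  · exact Or.inr ⟨Z, hZ (by norm_num), rfl⟩

theorem le_closure : threeJ3 F4 F4.w ≤ Subgroup.closure (Set.range Tg) := by
  unfold threeJ3
  rw [Subgroup.closure_le]
  intro g hg
  have key : ∀ (f : ℕ) (Z : F9), (f, Z) ∈ codes → g.1 = genOf f Z → g ∈ Subgroup.closure (Set.range Tg) := by
    intro f Z h1 h2
    have h3 := codes_val _ h1
    have h4 : g = prodT (rg.getD (iOf f Z) []) := Units.ext (by rw [prodT_val, h2]; exact h3.symm)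
    rw [h4]
    exact prodT_mem _
  rcases hg with ((((⟨Z, h⟩ | ⟨Z, h⟩) | ⟨Z, h⟩) | ⟨Z, hZ, h⟩) | ⟨Z, hZ, h⟩)
  · exact key 0 Z ((codes_all Z).1 0 (by norm_num)) h.symm
  · exact key 1 Z ((codes_all Z).1 1 (by norm_num)) h.symm
  · exact key 2 Z ((codes_all Z).1 2 (by norm_num)) h.symm
  · exact key 3 Z ((codes_all Z).2 hZ 3 (by norm_num) (by norm_num)) h
  · exact key 4 Z ((codes_all Z).2 hZ 4 (by norm_num) (by norm_num)) h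

/-- The letters as words in the generating matrices. -/
def wt : List (List ℕ) := [[37, 33, 5, 7, 30, 3, 7, 33, 5, 1, 4, 9], [38, 32, 25, 7, 40, 7, 38, 10], [10, 9, 12, 25, 14, 7, 5, 1, 1, 4, 9], [37, 5, 7, 25, 3, 7, 5, 1, 19, 39], [20, 22, 20, 7, 30, 7, 1, 10, 1, 4, 9]]

def gOf (i : ℕ) : Γ := prodT (rg.getD i [])

theorem gOf_mem : ∀ p ∈ codes, gOf (iOf p.1 p.2) ∈ threeJ3 F4 F4.w := by
  intro p hp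
  apply Subgroup.subset_closure
  show (gOf (iOf p.1 p.2)).1 ∈ j3Gens F4 F4.w
  rw [gOf, prodT_val, codes_val p hp]
  exact genOf_mem _ _ (codes_ok p hp).1 (codes_ok p hp).2

def gM (i : ℕ) : N9 := prodM (rg.getD i [])

theorem wt_idx : ∀ w ∈ wt, ∀ i ∈ w, ∃ p ∈ codes, i = iOf p.1 p.2 := by decide +kernel

def wtM (w : List ℕ) : N9 := (w.map gM).prod

def ltI : OPJ3.Gen → ℕ
  | .a => 0
  | .b => 1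
  | .c => 2
  | .d => 3
  | .e => 4

set_option maxHeartbeats 4000000 in
theorem wt_val : ∀ x : OPJ3.Gen, wtM (wt.getD (ltI x) []) = Tm x := by
  intro x
  cases x <;> decide +kernel

theorem Tg_mem (x : OPJ3.Gen) : Tg x ∈ threeJ3 F4 F4.w := by
  have hw : wt.getD (ltI x) [] ∈ wt := by
    cases x <;> decide +kernel
  have key : ∀ w : List ℕ, (∀ i ∈ w, ∃ p ∈ codes, i = iOf p.1 p.2) → ∃ g ∈ threeJ3 F4 F4.w, g.1 = wtM w := by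
    intro w
    induction w with
    | nil =>
      intro _
      exact ⟨1, Subgroup.one_mem _, rfl⟩
    | cons a w ih =>
      intro h
      obtain ⟨g, hg, hg2⟩ := ih (fun i hi => h i (List.mem_cons_of_mem a hi))
      obtain ⟨p, hp, rfl⟩ := h a List.mem_cons_self
      refine ⟨gOf _ * g, Subgroup.mul_mem _ (gOf_mem p hp) hg, ?_⟩
      rw [Units.val_mul, hg2, gOf, prodT_val]
      rfl
  obtain ⟨g, hg, hg2⟩ := key _ (wt_idx _ hw)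
  have h1 : g = Tg x := Units.ext (hg2.trans (wt_val x))
  rwa [← h1]

theorem closure_eq : Subgroup.closure (Set.range Tg) = threeJ3 F4 F4.w := by
  apply le_antisymm
  · rw [Subgroup.closure_le]
    rintro _ ⟨x, rfl⟩
    exact Tg_mem x
  · exact le_closure

end Cfsg.Agent.Lib.ToddCox.J3Gen
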