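/-
The triple cover of Janko's third group from the matrices of the definitions, for every field with four elements (helper16).
-/
import Cfsg.Agent.Lib.ToddCox.J3Mat.Gens

set_option autoImplicit false
set_option maxRecDepth 100000

namespace Cfsg.Agent.Lib.ToddCox.J3Gen

open Cfsg.Spor Cfsg.Agent.Lib.ToddCox.F4

theorem rels_ok : ∀ r ∈ coxList OPJ3.edges ++ OPJ3.extra,
    (FreeGroup.lift Tg r).1 = 1 ∨ (FreeGroup.lift Tg r).1 = sc := by decide +kernel

def z : Γ := FreeGroup.lift Tg (OPJ3.extra.getD 14 1)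

theorem z_val : z.1 = sc := by decide +kernel

theorem z_mem : z ∈ Subgroup.closure (Set.range Tg) := mem_closure_of_lift Tg _

theorem z_comm : ∀ a, Tg a * z = z * Tg a := by
  intro a
  apply Units.ext
  show Tm a * z.1 = z.1 * Tm a
  rw [z_val]
  cases a <;> decide +kernel

theorem z_ne : z ≠ 1 := by
  intro h
  have h1 := z_val
  rw [h] at h1
  revert h1
  show ¬ ((1 : N9) = sc)
  decide +kernel

theorem z_cube : z ^ 3 = 1 := by
  apply Units.ext
  rw [Units.val_pow_eq_pow_val, z_val]
  decide +kernel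

theorem z_order : orderOf z = 3 := by
  have : Fact (Nat.Prime 3) := ⟨Nat.prime_three⟩
  exact orderOf_eq_prime z_cube z_ne

theorem Ta_ne : Tg .a * Tg .b ≠ Tg .b * Tg .a := by
  intro h
  have h1 := congrArg (fun g : Γ => g.1) h
  revert h1
  show ¬ (Tm .a * Tm .b = Tm .b * Tm .a)
  decide +kernel

theorem Ta_not : Tg .a ∉ Subgroup.zpowers z := by
  intro h
  obtain ⟨k, hk⟩ := Subgroup.mem_zpowers_iff.mp h
  apply Ta_ne
  rw [← hk]
  exact (Commute.zpow_left (show Commute z (Tg .b) from (z_comm .b).symm) k).eq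

/-- What the theorem says, for a subgroup of a group. -/
def Claim {Φ : Type*} [Group Φ] (H : Subgroup Φ) : Prop :=
  Nat.card (Subgroup.center H) = 3 ∧ Nat.card H = 150698880 ∧ Nat.card (H ⧸ Subgroup.center H) = 50232960 ∧
    IsSimpleGroup (H ⧸ Subgroup.center H)

theorem claim_closure : Claim (Subgroup.closure (Set.range Tg)) := by
  have hs := J3O.main
  have hna : ∃ x y : Q, x * y ≠ y * x := by
    apply noncomm_of_simple hs.1
    rw [show Nat.card Q = 50232960 from hs.2]
    norm_num
  have hZc : ∀ g ∈ Subgroup.zpowers z, ∀ a, Tg a * g = g * Tg a := by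
    intro g hg a
    obtain ⟨k, rfl⟩ := Subgroup.mem_zpowers_iff.mp hg
    exact (Commute.zpow_right (show Commute (Tg a) z from z_comm a) k).eq
  have hZle : Subgroup.zpowers z ≤ Subgroup.closure (Set.range Tg) := by
    rw [Subgroup.zpowers_le]
    exact z_mem
  have hrel : ∀ r ∈ coxList OPJ3.edges ++ OPJ3.extra, FreeGroup.lift Tg r ∈ Subgroup.zpowers z := by
    intro r hr
    rcases rels_ok r hr with h | h
    · have : FreeGroup.lift Tg r = 1 := Units.ext h
      rw [this]
      exact Subgroup.one_mem _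
    · have : FreeGroup.lift Tg r = z := Units.ext (h.trans z_val.symm)
      rw [this]
      exact Subgroup.mem_zpowers z
  obtain ⟨h1, ⟨e⟩⟩ := cent_quot OPJ3.edges OPJ3.extra hs.1 hna Tg (Subgroup.zpowers z) hZc hZle hrel .a Ta_not
  have hcen : Nat.card (Subgroup.center (Subgroup.closure (Set.range Tg))) = 3 := by
    rw [h1, Nat.card_zpowers, z_order]
  have hq : Nat.card (Subgroup.closure (Set.range Tg) ⧸ Subgroup.center (Subgroup.closure (Set.range Tg))) = 50232960 := by
    rw [Nat.card_congr e.toEquiv]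
    exact hs.2
  refine ⟨hcen, ?_, hq, ?_⟩
  · rw [Subgroup.card_eq_card_quotient_mul_card_subgroup (Subgroup.center (Subgroup.closure (Set.range Tg))), hq, hcen]
  · have : IsSimpleGroup Q := hs.1
    exact e.isSimpleGroup

theorem claim_F4 : Claim (threeJ3 F4 F4.w) := closure_eq ▸ claim_closure

/-- The claim does not depend on the group but on its isomorphism type. -/
theorem Claim.congr {Φ Ψ : Type*} [Group Φ] [Group Ψ] {H : Subgroup Φ} {H' : Subgroup Ψ} (e : H ≃* H') (h : Claim H) :
    Claim H' := by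
  obtain ⟨h1, h2, h3, h4⟩ := h
  have hmap : (Subgroup.center H).map e.toMonoidHom = Subgroup.center H' := by
    ext x
    constructor
    · rintro ⟨y, hy, rfl⟩
      rw [SetLike.mem_coe, Subgroup.mem_center_iff] at hy
      rw [Subgroup.mem_center_iff]
      intro g
      have := hy (e.symm g)
      have h5 := congrArg e this
      simpa using h5
    · intro hx
      rw [Subgroup.mem_center_iff] at hx
      refine ⟨e.symm x, ?_, by simp⟩
      rw [SetLike.mem_coe, Subgroup.mem_center_iff]
      intro g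
      have := hx (e g)
      have h5 := congrArg e.symm this
      simpa using h5
  let e2 : H ⧸ Subgroup.center H ≃* H' ⧸ Subgroup.center H' := QuotientGroup.congr _ _ e hmap
  refine ⟨?_, ?_, ?_, ?_⟩
  · rw [← h1]
    exact (Nat.card_congr (Subgroup.centerCongr e).toEquiv).symm
  · rw [← h2]
    exact (Nat.card_congr e.toEquiv).symm
  · rw [← h3]
    exact (Nat.card_congr e2.toEquiv).symm
  · exact e2.symm.isSimpleGroup

section
variable {F : Type} [Field F] [Fintype F] (hF : Fintype.card F = 4) (ω : F) (hω : ω ^ 2 + ω + 1 = 0)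

include hF in
theorem two_eq_zero : (2 : F) = 0 := by
  obtain ⟨p, hp⟩ := CharP.exists F
  obtain ⟨n, hpp, hn⟩ := FiniteField.card F p
  rw [hF] at hn
  have h1 : p ∣ 4 := by
    rw [hn]
    exact dvd_pow_self p n.ne_zero
  have h2 : p ∣ 2 ^ 2 := by simpa using h1
  have h3 : p = 2 := (Nat.prime_dvd_prime_iff_eq hpp Nat.prime_two).mp (hpp.dvd_of_dvd_pow h2)
  subst h3
  have := CharP.cast_eq_zero F 2
  simpa using this

/-- The function from the field of the tables. -/
def tauF : F4 → F
  | .o => 0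
  | .l => 1
  | .w => ω
  | .v => ω ^ 2

include hF hω in
/-- The ring homomorphism from the field of the tables. -/
noncomputable def tau0 : F4 →+* F where
  toFun := tauF ω
  map_one' := rfl
  map_zero' := rfl
  map_mul' a b := by
    cases a <;> cases b
    · show (0 : F) = 0 * 0
      ring
    · show (0 : F) = 0 * 1
      ring
    · show (0 : F) = 0 * ω
      ring
    · show (0 : F) = 0 * ω ^ 2
      ring
    · show (0 : F) = 1 * 0
      ring
    · show (1 : F) = 1 * 1
      ring
    · show ω = 1 * ω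
      ring
    · show ω ^ 2 = 1 * ω ^ 2
      ring
    · show (0 : F) = ω * 0
      ring
    · show ω = ω * 1
      ring
    · show ω ^ 2 = ω * ω
      ring
    · show (1 : F) = ω * ω ^ 2
      linear_combination (-(ω - 1)) * hω
    · show (0 : F) = ω ^ 2 * 0
      ring
    · show ω ^ 2 = ω ^ 2 * 1
      ring
    · show (1 : F) = ω ^ 2 * ω
      linear_combination (-(ω - 1)) * hω
    · show ω = ω ^ 2 * ω ^ 2
      linear_combination (-(ω * (ω - 1))) * hω
  map_add' a b := by
    have h2 := two_eq_zero hF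
    cases a <;> cases b
    · show (0 : F) = 0 + 0
      ring
    · show (1 : F) = 0 + 1
      ring
    · show ω = 0 + ω
      ring
    · show ω ^ 2 = 0 + ω ^ 2
      ring
    · show (1 : F) = 1 + 0
      ring
    · show (0 : F) = 1 + 1
      linear_combination (-1) * h2
    · show ω ^ 2 = 1 + ω
      linear_combination hω - (ω + 1) * h2
    · show ω = 1 + ω ^ 2
      linear_combination (-1) * hω + ω * h2
    · show ω = ω + 0
      ring
    · show ω ^ 2 = ω + 1
      linear_combination hω - (ω + 1) * h2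
    · show (0 : F) = ω + ω
      linear_combination (-ω) * h2
    · show (1 : F) = ω + ω ^ 2
      linear_combination (-1) * hω + h2
    · show ω ^ 2 = ω ^ 2 + 0
      ring
    · show ω = ω ^ 2 + 1
      linear_combination (-1) * hω + ω * h2
    · show (1 : F) = ω ^ 2 + ω
      linear_combination (-1) * hω + h2
    · show (0 : F) = ω ^ 2 + ω ^ 2
      linear_combination (-(ω ^ 2)) * h2

theorem tau0_w : tau0 hF ω hω F4.w = ω := rfl

/-- The ring isomorphism from the field of the tables. -/
noncomputable def tau : F4 ≃+* F :=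
  RingEquiv.ofBijective (tau0 hF ω hω) ((Fintype.bijective_iff_injective_and_card _).mpr
    ⟨(tau0 hF ω hω).injective, by rw [hF]; rfl⟩)

theorem tau_w : tau hF ω hω F4.w = ω := rfl

theorem tau_omegaPow (n : ZMod 3) : tau hF ω hω (omegaPow F4 F4.w n) = omegaPow F ω n := by
  simp only [omegaPow, map_pow, tau_w]

theorem map_A (Z : F9) : (j3A F4 F4.w Z).map (tau hF ω hω) = j3A F ω Z := by
  ext i j
  simp only [j3A, Matrix.map_apply, Matrix.diagonal_apply]
  split_ifs
  · exact tau_omegaPow hF ω hω _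
  · exact map_zero _

theorem map_E (Z : F9) : (j3E F4 F4.w Z).map (tau hF ω hω) = j3E F ω Z := by
  ext i j
  simp only [j3E, Matrix.map_apply, Matrix.diagonal_apply]
  split_ifs
  · exact tau_omegaPow hF ω hω _
  · exact map_zero _

theorem map_Lam (Z z : F9) : tau hF ω hω (j3Lam F4 F4.w Z z) = j3Lam F ω Z z := by
  unfold j3Lam
  split_ifs
  · exact map_one _
  · exact tau_w hF ω hω
  · rw [map_pow, tau_w]
  · exact map_one _

theorem map_D (Z : F9) : (j3D F4 F4.w Z).map (tau hF ω hω) = j3D F ω Z := by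
  ext i j
  simp only [j3D, Matrix.map_apply, Matrix.of_apply]
  split_ifs
  · exact map_Lam hF ω hω _ _
  · exact map_zero _

theorem map_B (Z : F9) : (j3B F4 Z).map (tau hF ω hω) = j3B F Z := by
  ext i j
  simp only [j3B, Matrix.map_apply, Matrix.of_apply]
  split_ifs
  · exact map_one _
  · exact map_zero _

theorem map_C (Z : F9) : (j3C F4 Z).map (tau hF ω hω) = j3C F Z := by
  ext i j
  simp only [j3C, Matrix.map_apply, Matrix.of_apply]
  split_ifs
  · exact map_one _
  · exact map_zero _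
  · exact map_one _
  · exact map_zero _

/-- The isomorphism of the general linear groups. -/
noncomputable def Φ : GL F9 F4 ≃* GL F9 F := Units.mapEquiv (tau hF ω hω).mapMatrix.toMulEquiv

theorem Φ_val (g : GL F9 F4) : (Φ hF ω hω g).1 = g.1.map (tau hF ω hω) := rfl

theorem map_inj {A B : Matrix F9 F9 F4} (h : A.map (tau hF ω hω) = B.map (tau hF ω hω)) : A = B := by
  ext i j
  exact (tau hF ω hω).injective (congrFun (congrFun h i) j)

theorem gens_iff (g : GL F9 F4) : (Φ hF ω hω g).1 ∈ j3Gens F ω ↔ g.1 ∈ j3Gens F4 F4.w := by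
  rw [Φ_val]
  constructor
  · rintro ((((⟨Z, h⟩ | ⟨Z, h⟩) | ⟨Z, h⟩) | ⟨Z, hZ, h⟩) | ⟨Z, hZ, h⟩)
    · rw [← map_A hF ω hω] at h
      exact Or.inl (Or.inl (Or.inl (Or.inl ⟨Z, map_inj hF ω hω h⟩)))
    · rw [← map_E hF ω hω] at h
      exact Or.inl (Or.inl (Or.inl (Or.inr ⟨Z, map_inj hF ω hω h⟩)))
    · rw [← map_D hF ω hω] at h
      exact Or.inl (Or.inl (Or.inr ⟨Z, map_inj hF ω hω h⟩))
    · rw [← map_B hF ω hω] at h
      exact Or.inl (Or.inr ⟨Z, hZ, map_inj hF ω hω h⟩)
    · rw [← map_C hF ω hω] at h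
      exact Or.inr ⟨Z, hZ, map_inj hF ω hω h⟩
  · rintro ((((⟨Z, h⟩ | ⟨Z, h⟩) | ⟨Z, h⟩) | ⟨Z, hZ, h⟩) | ⟨Z, hZ, h⟩)
    · rw [← h, map_A hF ω hω]
      exact Or.inl (Or.inl (Or.inl (Or.inl ⟨Z, rfl⟩)))
    · rw [← h, map_E hF ω hω]
      exact Or.inl (Or.inl (Or.inl (Or.inr ⟨Z, rfl⟩)))
    · rw [← h, map_D hF ω hω]
      exact Or.inl (Or.inl (Or.inr ⟨Z, rfl⟩))
    · rw [h, map_B hF ω hω]
      exact Or.inl (Or.inr ⟨Z, hZ, rfl⟩)
    · rw [h, map_C hF ω hω]
      exact Or.inr ⟨Z, hZ, rfl⟩

theorem image_eq : (threeJ3 F4 F4.w).map (Φ hF ω hω).toMonoidHom = threeJ3 F ω := by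
  unfold threeJ3
  rw [MonoidHom.map_closure]
  congr 1
  ext g
  constructor
  · rintro ⟨g', hg', rfl⟩
    exact (gens_iff hF ω hω g').mpr hg'
  · intro hg
    refine ⟨(Φ hF ω hω).symm g, ?_, by simp⟩
    apply (gens_iff hF ω hω _).mp
    simpa using hg

include hF hω in
theorem claim_all : Claim (threeJ3 F ω) :=
  claim_F4.congr (((Φ hF ω hω).subgroupMap _).trans (MulEquiv.subgroupCongr (image_eq hF ω hω)))

end

end Cfsg.Agent.Lib.ToddCox.J3Gen
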